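import Mathlib
import Cfsg.Prelude.Def_GeometricClasses
import Cfsg.Agent.Lib.Helper97.PrimBasic

/-!
# Eigenspaces of elements normalising an extraspecial group: basic definitions (for S5877)
-/

set_option autoImplicit false

namespace Cfsg.Agent.Lib.Helper97.Ext

open Matrix Module Cfsg.Agent.Lib.Helper97

/-- eigenspace of an element of `GL_n(F)` -/
abbrev eig {F : Type*} [Field F] {n : ℕ} (a : GL (Fin n) F) (μ : F) : Submodule F (Fin n → F) :=
  Module.End.eigenspace (L a) μ

end Cfsg.Agent.Lib.Helper97.Ext
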