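import Mathlib
import Cfsg.Agent.Lib.Helper97.Ext.Defs

/-!
# Basic lemmas on eigenspaces, scalars and shifts (for S5877)
-/

set_option autoImplicit false

namespace Cfsg.Agent.Lib.Helper97.Ext

open Matrix Module Cfsg.Agent.Lib.Helper97

variable {F : Type*} [Field F] {n : ℕ}

theorem mem_eig (a : GL (Fin n) F) (μ : F) (v : Fin n → F) : v ∈ eig a μ ↔ L a v = μ • v :=
  Module.End.mem_eigenspace_iff

theorem scalar_apply {z : GL (Fin n) F} (hz : z ∈ Cfsg.Geo.scalars (Fin n) F) :
    ∃ c : F, c ≠ 0 ∧ ∀ w, L z w = c • w := by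
  obtain ⟨c, hc⟩ := (Cfsg.Geo.mem_scalars_iff z).mp hz
  refine ⟨c, c.ne_zero, fun w => ?_⟩
  simp [L, hc]

theorem mem_scalars_of_apply {z : GL (Fin n) F} {c : F} (hc : c ≠ 0) (h : ∀ w, L z w = c • w) :
    z ∈ Cfsg.Geo.scalars (Fin n) F := by
  refine (Cfsg.Geo.mem_scalars_iff z).mpr ⟨Units.mk0 c hc, ?_⟩
  apply Matrix.toLin'.injective
  ext1 w
  ext1
  simp only [LinearMap.comp_apply]
  have := h (Pi.single w 1)
  simp only [L] at this
  rw [LinearMap.coe_single, this]
  simp

theorem scalar_comm {z : GL (Fin n) F} (hz : z ∈ Cfsg.Geo.scalars (Fin n) F) (a : GL (Fin n) F) :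
    z * a = a * z := by
  obtain ⟨c, _, hc⟩ := scalar_apply hz
  apply L_inj
  ext1 w
  ext1
  simp only [LinearMap.comp_apply]
  rw [L_mul_apply, L_mul_apply, hc, hc, map_smul]

theorem scalar_mem_center {z : GL (Fin n) F} (hz : z ∈ Cfsg.Geo.scalars (Fin n) F) :
    z ∈ Subgroup.center (GL (Fin n) F) :=
  Subgroup.mem_center_iff.mpr (fun a => (scalar_comm hz a).symm)

theorem scalar_eq_one_of_fix {z : GL (Fin n) F} (hz : z ∈ Cfsg.Geo.scalars (Fin n) F)
    {w : Fin n → F} (hw : w ≠ 0) (h : L z w = w) : z = 1 := by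
  obtain ⟨c, _, hc⟩ := scalar_apply hz
  have h1 : c • w = (1 : F) • w := by rw [← hc, h, one_smul]
  have h2 : c = 1 := smul_left_injective F hw h1
  apply L_inj
  ext1 v
  ext1
  simp only [LinearMap.comp_apply]
  rw [hc, h2, one_smul, L_one]
  rfl

theorem finrank_le_of_maps (b : GL (Fin n) F) {A B : Submodule F (Fin n → F)}
    (h : ∀ v ∈ A, L b v ∈ B) : finrank F A ≤ finrank F B := by
  rw [← finrank_map_L b A]
  apply Submodule.finrank_mono
  rintro _ ⟨v, hv, rfl⟩
  exact h v hv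

/-- (M0) -/
theorem sum_finrank_le_finset {ι : Type*} (U : ι → Submodule F (Fin n → F)) (hU : iSupIndep U)
    (s : Finset ι) : ∑ i ∈ s, finrank F (U i) = finrank F (⨆ i ∈ s, U i : Submodule F (Fin n → F)) := by
  classical
  induction s using Finset.induction_on with
  | empty =>
    have : (⨆ i ∈ (∅ : Finset ι), U i : Submodule F (Fin n → F)) = ⊥ := by simp
    rw [this, finrank_bot, Finset.sum_empty]
  | insert a s ha ih =>
    rw [Finset.sum_insert ha, ih, Finset.iSup_insert]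
    have hd : Disjoint (U a) (⨆ i ∈ (s : Set ι), U i) := hU.disjoint_biSup (by simpa using ha)
    have h3 := Submodule.finrank_sup_add_finrank_inf_eq (U a) (⨆ i ∈ s, U i)
    have h4 : U a ⊓ (⨆ i ∈ s, U i) = ⊥ := by
      have := hd.eq_bot
      simpa using this
    rw [h4, finrank_bot, add_zero] at h3
    exact h3.symm

theorem sum_finrank_le {ι : Type*} (U : ι → Submodule F (Fin n → F)) (hU : iSupIndep U)
    (s : Finset ι) (T : Submodule F (Fin n → F)) (hT : ∀ i ∈ s, U i ≤ T) :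
    ∑ i ∈ s, finrank F (U i) ≤ finrank F T := by
  rw [sum_finrank_le_finset U hU s]
  apply Submodule.finrank_mono
  exact iSup₂_le hT

theorem sum_eig_le (a : GL (Fin n) F) (s : Finset F) : ∑ μ ∈ s, finrank F (eig a μ) ≤ n := by
  have h := sum_finrank_le (fun μ => eig a μ) (Module.End.eigenspaces_iSupIndep (L a)) s ⊤
    (fun _ _ => le_top)
  simpa using h

theorem sum_eig_inf_le (a : GL (Fin n) F) (T : Submodule F (Fin n → F)) (s : Finset F) :
    ∑ μ ∈ s, finrank F (eig a μ ⊓ T : Submodule F (Fin n → F)) ≤ finrank F T := by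
  refine sum_finrank_le (fun μ => eig a μ ⊓ T) ?_ s T (fun _ _ => inf_le_right)
  exact (Module.End.eigenspaces_iSupIndep (L a)).mono (fun _ => inf_le_left)

theorem eig_zero (a : GL (Fin n) F) : eig a 0 = ⊥ := by
  rw [eq_bot_iff]
  intro v hv
  rw [mem_eig, zero_smul] at hv
  have : L a v = L a 0 := by rw [hv, map_zero]
  exact L_injective a this

theorem eig_shift {a b : GL (Fin n) F} {l : F} (h : ∀ w, L a (L b w) = l • L b (L a w)) (μ : F) :
    finrank F (eig a μ) ≤ finrank F (eig a (l * μ)) := by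
  apply finrank_le_of_maps b
  intro v hv
  rw [mem_eig] at hv ⊢
  rw [h, hv, map_smul, smul_smul]

theorem two_mul_eig_le {a b : GL (Fin n) F} {l : F} (h : ∀ w, L a (L b w) = l • L b (L a w))
    (hl : l ≠ 1) (μ : F) : 2 * finrank F (eig a μ) ≤ n := by
  classical
  by_cases hμ : μ = 0
  · rw [hμ, eig_zero]; simp
  have h1 := eig_shift h μ
  have hne : μ ≠ l * μ := by
    intro e
    apply hl
    have : l * μ = 1 * μ := by rw [one_mul]; exact e.symm
    exact mul_right_cancel₀ hμ this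
  have h2 := sum_eig_le a {μ, l * μ}
  rw [Finset.sum_pair hne] at h2
  omega

theorem r_mul_eig_le {r : ℕ} (hr : r.Prime) {a b : GL (Fin n) F} {l : F}
    (h : ∀ w, L a (L b w) = l • L b (L a w)) (hl : l ≠ 1) (hlr : l ^ r = 1) (μ : F) :
    r * finrank F (eig a μ) ≤ n := by
  classical
  by_cases hμ : μ = 0
  · rw [hμ, eig_zero]; simp
  have h1 : ∀ j : ℕ, finrank F (eig a μ) ≤ finrank F (eig a (l ^ j * μ)) := by
    intro j
    induction j with
    | zero => rw [pow_zero, one_mul]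
    | succ j ih =>
      refine ih.trans ?_
      have := eig_shift h (l ^ j * μ)
      rwa [← mul_assoc, ← pow_succ'] at this
  have hprim : IsPrimitiveRoot l r := by
    haveI : Fact r.Prime := ⟨hr⟩
    have : orderOf l = r := orderOf_eq_prime hlr hl
    rw [← this]; exact IsPrimitiveRoot.orderOf l
  have hinj : Set.InjOn (fun j : ℕ => l ^ j * μ) (Finset.range r) := by
    intro i hi j hj hij
    have : l ^ i = l ^ j := mul_right_cancel₀ hμ hij
    exact hprim.pow_inj (Finset.mem_range.mp (Finset.mem_coe.mp hi))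
      (Finset.mem_range.mp (Finset.mem_coe.mp hj)) this
  have h2 := sum_eig_le a ((Finset.range r).image (fun j : ℕ => l ^ j * μ))
  rw [Finset.sum_image hinj] at h2
  have h3 : ∑ j ∈ Finset.range r, finrank F (eig a μ) ≤
      ∑ j ∈ Finset.range r, finrank F (eig a (l ^ j * μ)) :=
    Finset.sum_le_sum (fun j _ => h1 j)
  rw [Finset.sum_const, Finset.card_range, smul_eq_mul] at h3
  omega

/-- `g⁻¹` acts as `c⁻¹` on the `c`-eigenspace -/
theorem inv_apply_of_mem_eig {g : GL (Fin n) F} {c : F} (hc : c ≠ 0) {w : Fin n → F}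
    (hw : w ∈ eig g c) : L g⁻¹ w = c⁻¹ • w := by
  rw [mem_eig] at hw
  have h1 : L g⁻¹ (L g w) = w := L_inv_apply g w
  rw [hw, map_smul] at h1
  rw [← h1, smul_smul, inv_mul_cancel₀ hc, one_smul]
  rw [h1]

theorem inter_le_fix (g x : GL (Fin n) F) {c : F} (hc : c ≠ 0) :
    eig g c ⊓ (eig g c).map (L x) ≤ eig (g * x * g⁻¹ * x⁻¹) 1 := by
  rintro v ⟨hv, w, hw, rfl⟩
  rw [mem_eig, one_smul, L_mul_apply, L_mul_apply, L_mul_apply, L_inv_apply,
    inv_apply_of_mem_eig hc hw, map_smul, map_smul]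
  have hv' : L g (L x w) = c • L x w := (mem_eig _ _ _).mp hv
  rw [hv', smul_smul, inv_mul_cancel₀ hc, one_smul]

theorem two_mul_le_add_fix (g x : GL (Fin n) F) {c : F} (hc : c ≠ 0) :
    2 * finrank F (eig g c) ≤ n + finrank F (eig (g * x * g⁻¹ * x⁻¹) 1) := by
  have h1 : finrank F ((eig g c).map (L x)) = finrank F (eig g c) := finrank_map_L x _
  have h3 := Submodule.finrank_sup_add_finrank_inf_eq (eig g c) ((eig g c).map (L x))
  have h4 : finrank F (eig g c ⊔ (eig g c).map (L x) : Submodule F (Fin n → F)) ≤ n := by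
    have := Submodule.finrank_le (eig g c ⊔ (eig g c).map (L x))
    simpa using this
  have h5 := Submodule.finrank_mono (inter_le_fix g x hc)
  omega

theorem exists_common_vec (g x : GL (Fin n) F) {c : F}
    (hbig : n < 2 * finrank F (eig g c)) :
    ∃ w, w ≠ 0 ∧ w ∈ eig g c ∧ L x w ∈ eig g c := by
  have h1 : finrank F ((eig g c).map (L x⁻¹)) = finrank F (eig g c) := finrank_map_L x⁻¹ _
  have h3 := Submodule.finrank_sup_add_finrank_inf_eq (eig g c) ((eig g c).map (L x⁻¹))
  have h4 : finrank F (eig g c ⊔ (eig g c).map (L x⁻¹) : Submodule F (Fin n → F)) ≤ n := by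
    have := Submodule.finrank_le (eig g c ⊔ (eig g c).map (L x⁻¹))
    simpa using this
  have h5 : 0 < finrank F (eig g c ⊓ (eig g c).map (L x⁻¹) : Submodule F (Fin n → F)) := by omega
  have h6 : (eig g c ⊓ (eig g c).map (L x⁻¹) : Submodule F (Fin n → F)) ≠ ⊥ := by
    intro e
    rw [e, finrank_bot] at h5
    exact lt_irrefl _ h5
  obtain ⟨w, hw, hw0⟩ := Submodule.exists_mem_ne_zero_of_ne_bot h6
  obtain ⟨hw1, v, hv, rfl⟩ := hw
  refine ⟨_, hw0, hw1, ?_⟩
  rw [L_apply_inv]
  exact hv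

end Cfsg.Agent.Lib.Helper97.Ext
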