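import Mathlib
import Cfsg.Agent.Lib.Helper97.Ext.Basic

set_option autoImplicit false

namespace Cfsg.Agent.Lib.Helper97.Ext

open Matrix Module Cfsg.Agent.Lib.Helper97
open scoped commutatorElement

variable {F : Type*} [Field F] {n : ℕ}

theorem mem_scalars_of_matrix_eq {a : GL (Fin n) F} {c : F}
    (h : (a : Matrix (Fin n) (Fin n) F) = c • (1 : Matrix (Fin n) (Fin n) F)) :
    a ∈ Cfsg.Geo.scalars (Fin n) F := by
  by_cases hc : c = 0
  · have h0 : (a : Matrix (Fin n) (Fin n) F) = 0 := by rw [h, hc, zero_smul]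
    have h1 : (1 : Matrix (Fin n) (Fin n) F) = 0 := by
      have := a.mul_inv
      rw [h0, zero_mul] at this
      exact this.symm
    refine (Cfsg.Geo.mem_scalars_iff a).mpr ⟨1, ?_⟩
    rw [h0, h1, smul_zero]
  · exact (Cfsg.Geo.mem_scalars_iff a).mpr ⟨Units.mk0 c hc, h⟩

theorem mem_scalars_of_centralizes {R : Subgroup (GL (Fin n) F)}
    (hirr : Cfsg.Geo.ActsAbsolutelyIrreducibly (Cfsg.Geo.matrixSet R)) {a : GL (Fin n) F}
    (h : ∀ b ∈ R, a * b = b * a) : a ∈ Cfsg.Geo.scalars (Fin n) F := by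
  obtain ⟨c, hc⟩ := hirr.2 (a : Matrix (Fin n) (Fin n) F) (by
    rintro _ ⟨b, hb, rfl⟩
    have := congrArg Units.val (h b hb)
    simpa using this)
  exact mem_scalars_of_matrix_eq hc

theorem center_facts {r : ℕ} {R : Subgroup (GL (Fin n) F)}
    (hZ : Nat.card (Subgroup.center R) = r)
    (hirr : Cfsg.Geo.ActsAbsolutelyIrreducibly (Cfsg.Geo.matrixSet R)) (z : R)
    (hz : z ∈ Subgroup.center R) :
    (z : GL (Fin n) F) ∈ Cfsg.Geo.scalars (Fin n) F ∧ (z : GL (Fin n) F) ^ r = 1 := by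
  constructor
  · apply mem_scalars_of_centralizes hirr
    intro b hb
    have := Subgroup.mem_center_iff.mp hz ⟨b, hb⟩
    exact (congrArg Subtype.val this).symm
  · have h1 : (⟨z, hz⟩ : Subgroup.center R) ^ Nat.card (Subgroup.center R) = 1 :=
      pow_card_eq_one'
    rw [hZ] at h1
    have h2 := congrArg (fun t : Subgroup.center R => ((t : R) : GL (Fin n) F)) h1
    simpa using h2

theorem K_R {r : ℕ} {R : Subgroup (GL (Fin n) F)}
    (hZ : Nat.card (Subgroup.center R) = r) (hext : commutator R = Subgroup.center R)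
    (hirr : Cfsg.Geo.ActsAbsolutelyIrreducibly (Cfsg.Geo.matrixSet R))
    {a b : GL (Fin n) F} (ha : a ∈ R) (hb : b ∈ R) :
    a * b * a⁻¹ * b⁻¹ ∈ Cfsg.Geo.scalars (Fin n) F ∧ (a * b * a⁻¹ * b⁻¹) ^ r = 1 := by
  have h1 : ⁅(⟨a, ha⟩ : R), (⟨b, hb⟩ : R)⁆ ∈ commutator R :=
    Subgroup.commutator_mem_commutator (Subgroup.mem_top _) (Subgroup.mem_top _)
  rw [hext] at h1
  have h2 := center_facts hZ hirr _ h1
  have h3 : ((⁅(⟨a, ha⟩ : R), (⟨b, hb⟩ : R)⁆ : R) : GL (Fin n) F) = a * b * a⁻¹ * b⁻¹ := by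
    rw [commutatorElement_def]; rfl
  rwa [h3] at h2

theorem mem_E {R : Subgroup (GL (Fin n) F)} {a : GL (Fin n) F}
    (ha : a ∈ R ⊔ Cfsg.Geo.scalars (Fin n) F) :
    ∃ ρ ∈ R, ∃ z ∈ Cfsg.Geo.scalars (Fin n) F, a = ρ * z := by
  obtain ⟨ρ, hρ, z, hz, h⟩ := Subgroup.mem_sup_of_normal_right.mp ha
  exact ⟨ρ, hρ, z, hz, h.symm⟩

theorem K_E {r : ℕ} {R : Subgroup (GL (Fin n) F)}
    (hZ : Nat.card (Subgroup.center R) = r) (hext : commutator R = Subgroup.center R)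
    (hirr : Cfsg.Geo.ActsAbsolutelyIrreducibly (Cfsg.Geo.matrixSet R))
    {a b : GL (Fin n) F} (ha : a ∈ R ⊔ Cfsg.Geo.scalars (Fin n) F)
    (hb : b ∈ R ⊔ Cfsg.Geo.scalars (Fin n) F) :
    a * b * a⁻¹ * b⁻¹ ∈ Cfsg.Geo.scalars (Fin n) F ∧ (a * b * a⁻¹ * b⁻¹) ^ r = 1 := by
  obtain ⟨ρ, hρ, z, hz, rfl⟩ := mem_E ha
  obtain ⟨σ, hσ, y, hy, rfl⟩ := mem_E hb
  have e : ρ * z * (σ * y) * (ρ * z)⁻¹ * (σ * y)⁻¹ = ρ * σ * ρ⁻¹ * σ⁻¹ := by
    have c1 : ∀ t, z * t = t * z := scalar_comm hz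
    have c2 : ∀ t, y * t = t * y := scalar_comm hy
    calc ρ * z * (σ * y) * (ρ * z)⁻¹ * (σ * y)⁻¹
        = ρ * (z * (σ * y * z⁻¹)) * ρ⁻¹ * y⁻¹ * σ⁻¹ := by group
      _ = ρ * (σ * y * z⁻¹ * z) * ρ⁻¹ * y⁻¹ * σ⁻¹ := by rw [c1]
      _ = ρ * σ * (y * ρ⁻¹) * y⁻¹ * σ⁻¹ := by group
      _ = ρ * σ * (ρ⁻¹ * y) * y⁻¹ * σ⁻¹ := by rw [c2]
      _ = ρ * σ * ρ⁻¹ * σ⁻¹ := by group
  rw [e]
  exact K_R hZ hext hirr hρ hσ

theorem pow_R {r : ℕ} (hr : r.Prime) (hr2 : r ≠ 2) {R : Subgroup (GL (Fin n) F)}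
    (hR : IsPGroup r R) (hexp : Monoid.exponent R = r ∨ Monoid.exponent R = 4)
    {a : GL (Fin n) F} (ha : a ∈ R) : a ^ r = 1 := by
  rcases hexp with h | h
  · have := Monoid.pow_exponent_eq_one (⟨a, ha⟩ : R)
    rw [h] at this
    have h2 := congrArg Subtype.val this
    simpa using h2
  · have h4 := Monoid.pow_exponent_eq_one (⟨a, ha⟩ : R)
    rw [h] at h4
    obtain ⟨k, hk⟩ := hR ⟨a, ha⟩
    have hco : Nat.Coprime 4 (r ^ k) := by
      apply Nat.Coprime.pow_right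
      have : Nat.Coprime 2 r := (Nat.coprime_primes Nat.prime_two hr).mpr (Ne.symm hr2)
      exact Nat.Coprime.pow_left 2 this
    have h1 : (⟨a, ha⟩ : R) = 1 := by
      have d1 := orderOf_dvd_of_pow_eq_one h4
      have d2 := orderOf_dvd_of_pow_eq_one hk
      have := Nat.eq_one_of_dvd_coprimes hco d1 d2
      exact orderOf_eq_one_iff.mp this
    have h2 : a = 1 := congrArg Subtype.val h1
    rw [h2, one_pow]

theorem pow_E {r : ℕ} (hr : r.Prime) (hr2 : r ≠ 2) {R : Subgroup (GL (Fin n) F)}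
    (hR : IsPGroup r R) (hexp : Monoid.exponent R = r ∨ Monoid.exponent R = 4)
    {a : GL (Fin n) F} (ha : a ∈ R ⊔ Cfsg.Geo.scalars (Fin n) F) :
    a ^ r ∈ Cfsg.Geo.scalars (Fin n) F := by
  obtain ⟨ρ, hρ, z, hz, rfl⟩ := mem_E ha
  have hc : Commute ρ z := (scalar_comm hz ρ).symm
  rw [hc.mul_pow, pow_R hr hr2 hR hexp hρ, one_mul]
  exact Subgroup.pow_mem _ hz r

theorem r_dvd_n {r : ℕ} (hr : r.Prime) {R : Subgroup (GL (Fin n) F)}
    (hZ : Nat.card (Subgroup.center R) = r) (hext : commutator R = Subgroup.center R)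
    (hirr : Cfsg.Geo.ActsAbsolutelyIrreducibly (Cfsg.Geo.matrixSet R)) : r ∣ n := by
  -- a nontrivial commutator
  have hex : ∃ a ∈ R, ∃ b ∈ R, a * b * a⁻¹ * b⁻¹ ≠ 1 := by
    by_contra hcon
    push Not at hcon
    have h1 : Subgroup.center R = ⊤ := by
      rw [eq_top_iff]
      intro z _
      rw [Subgroup.mem_center_iff]
      intro t
      apply Subtype.ext
      have := hcon t.1 t.2 z.1 z.2
      rw [mul_inv_eq_one, mul_inv_eq_iff_eq_mul] at this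
      exact this
    have h2 : commutator R = ⊥ := by
      show ⁅(⊤ : Subgroup R), (⊤ : Subgroup R)⁆ = ⊥
      rw [Subgroup.commutator_top_right_eq_bot_iff_le_center, h1]
    rw [hext] at h2
    rw [h2] at hZ
    simp at hZ
    exact hr.one_lt.ne hZ
  obtain ⟨a, ha, b, hb, hab⟩ := hex
  obtain ⟨hs, hp⟩ := K_R hZ hext hirr ha hb
  obtain ⟨c, hc⟩ := (Cfsg.Geo.mem_scalars_iff _).mp hs
  have hdet : (a * b * a⁻¹ * b⁻¹ : GL (Fin n) F).val.det = 1 := by
    have : Matrix.GeneralLinearGroup.det (a * b * a⁻¹ * b⁻¹) = 1 := by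
      simp only [map_mul, map_inv]
      rw [mul_comm (Matrix.GeneralLinearGroup.det a), mul_assoc, mul_assoc,
        ← mul_assoc (Matrix.GeneralLinearGroup.det a), mul_inv_cancel, one_mul, mul_inv_cancel]
    have h2 := congrArg Units.val this
    rw [Matrix.GeneralLinearGroup.val_det_apply] at h2
    exact h2
  rw [hc, Matrix.det_smul, Matrix.det_one, mul_one, Fintype.card_fin] at hdet
  have hc1 : (c : F) ≠ 1 := by
    intro h1
    apply hab
    apply Units.ext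
    rw [hc, h1, one_smul]; rfl
  have hcr : (c : F) ^ r = 1 := by
    by_cases hn : n = 0
    · subst hn
      exfalso
      exact hab (Subsingleton.elim _ _)
    have h1 := congrArg Units.val hp
    rw [Units.val_pow_eq_pow_val, hc, smul_pow, one_pow] at h1
    have h2 := congrFun (congrFun h1 ⟨0, Nat.pos_of_ne_zero hn⟩) ⟨0, Nat.pos_of_ne_zero hn⟩
    simpa using h2
  have : Fact r.Prime := ⟨hr⟩
  have ho : orderOf (c : F) = r := orderOf_eq_prime hcr hc1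
  rw [← ho]
  exact orderOf_dvd_of_pow_eq_one hdet

end Cfsg.Agent.Lib.Helper97.Ext
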