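import Mathlib

set_option autoImplicit false

namespace Cfsg.Agent.Lib.Helper97.Ext

/-- [B] abstract commutator-pairing lemma -/
theorem pair_lemma {Γ : Type*} [Group Γ] (E : Subgroup Γ) (g : Γ) (r ϖ : ℕ)
    (hco : Nat.Coprime ϖ r) (hodd : Odd ϖ) (hgϖ : g ^ ϖ = 1)
    (hgE : ∀ a ∈ E, g * a * g⁻¹ ∈ E)
    (hK : ∀ a ∈ E, ∀ b ∈ E, a * b * a⁻¹ * b⁻¹ ∈ Subgroup.center Γ ∧ (a * b * a⁻¹ * b⁻¹) ^ r = 1)
    (hfix : ∀ x ∈ E, ∀ j : ℕ,
      Commute (x⁻¹ * (g * x * g⁻¹)) (x⁻¹ * (g ^ j * x * (g ^ j)⁻¹))) :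
    ∀ x ∈ E, ∀ y ∈ E, Commute x (g * y * g⁻¹ * y⁻¹) := by
  let K : Γ → Γ → Γ := fun a b => a * b * a⁻¹ * b⁻¹
  have Kdef : ∀ a b, K a b = a * b * a⁻¹ * b⁻¹ := fun _ _ => rfl
  have kc : ∀ a ∈ E, ∀ b ∈ E, ∀ t, t * K a b = K a b * t := fun a ha b hb =>
    Subgroup.mem_center_iff.mp (hK a ha b hb).1
  have k1 : ∀ a ∈ E, ∀ b ∈ E, ∀ c ∈ E, K (a * b) c = K a c * K b c := by
    intro a ha b hb c hc
    have hz := kc b hb c hc
    calc K (a * b) c = a * K b c * (c * a⁻¹ * c⁻¹) := by simp only [Kdef]; group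
      _ = K b c * a * (c * a⁻¹ * c⁻¹) := by rw [hz a]
      _ = K b c * K a c := by simp only [Kdef]; group
      _ = K a c * K b c := (hz _).symm
  have k2 : ∀ a ∈ E, ∀ b ∈ E, ∀ c ∈ E, K a (b * c) = K a b * K a c := by
    intro a ha b hb c hc
    have hz := kc a ha c hc
    calc K a (b * c) = (a * b * a⁻¹) * K a c * b⁻¹ := by simp only [Kdef]; group
      _ = K a c * (a * b * a⁻¹) * b⁻¹ := by rw [hz (a * b * a⁻¹)]
      _ = K a c * K a b := by simp only [Kdef]; group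
      _ = K a b * K a c := (hz _).symm
  have k3 : ∀ a b, K b a = (K a b)⁻¹ := by
    intro a b; simp only [Kdef]; group
  have kaa : ∀ a, K a a = 1 := by
    intro a; simp only [Kdef]; group
  have k4 : ∀ a ∈ E, ∀ b ∈ E, K a⁻¹ b = (K a b)⁻¹ := by
    intro a ha b hb
    have h := k1 a⁻¹ (E.inv_mem ha) a ha b hb
    have h1 : K (a⁻¹ * a) b = 1 := by simp only [Kdef]; group
    rw [h1] at h
    exact eq_inv_of_mul_eq_one_left h.symm
  have k4' : ∀ a ∈ E, ∀ b ∈ E, K a b⁻¹ = (K a b)⁻¹ := by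
    intro a ha b hb
    rw [k3 b⁻¹ a, k4 b hb a ha, k3 a b, inv_inv]
  have k5 : ∀ a ∈ E, ∀ b ∈ E, K (g * a * g⁻¹) (g * b * g⁻¹) = K a b := by
    intro a ha b hb
    have hz := kc a ha b hb
    calc K (g * a * g⁻¹) (g * b * g⁻¹) = g * K a b * g⁻¹ := by simp only [Kdef]; group
      _ = K a b * g * g⁻¹ := by rw [hz g]
      _ = K a b := by group
  have hgpE : ∀ j : ℕ, ∀ a ∈ E, g ^ j * a * (g ^ j)⁻¹ ∈ E := by
    intro j
    induction j with
    | zero => intro a ha; simpa using ha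
    | succ j ih =>
      intro a ha
      have := hgE _ (ih a ha)
      have e : g ^ (j + 1) * a * (g ^ (j + 1))⁻¹ = g * (g ^ j * a * (g ^ j)⁻¹) * g⁻¹ := by
        rw [pow_succ']; group
      rw [e]; exact this
  have conj_succ : ∀ (j : ℕ) (a : Γ),
      g ^ (j + 1) * a * (g ^ (j + 1))⁻¹ = g * (g ^ j * a * (g ^ j)⁻¹) * g⁻¹ := by
    intro j a
    rw [pow_succ']; group
  have comm_iff : ∀ a b : Γ, Commute a b ↔ K a b = 1 := by
    intro a b
    simp only [Kdef]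
    rw [mul_inv_eq_one, mul_inv_eq_iff_eq_mul]
    exact Iff.rfl
  -- Step 2/3
  have N1 : ∀ x ∈ E, K x (g * x * g⁻¹) = 1 := by
    intro x hx
    have hy : g * x * g⁻¹ ∈ E := hgE x hx
    have hxi : x⁻¹ ∈ E := E.inv_mem hx
    have hrec : ∀ j : ℕ, K x (g ^ (j + 1) * x * (g ^ (j + 1))⁻¹) =
        K x (g * x * g⁻¹) * K x (g ^ j * x * (g ^ j)⁻¹) := by
      intro j
      have hw : g ^ (j + 1) * x * (g ^ (j + 1))⁻¹ ∈ E := hgpE (j + 1) x hx
      have h := (comm_iff _ _).mp (hfix x hx (j + 1))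
      rw [k1 _ hxi _ hy _ (E.mul_mem hxi hw), k2 _ hxi _ hxi _ hw, k2 _ hy _ hxi _ hw, kaa, one_mul,
        k4 x hx _ hw, k4' _ hy x hx, k3 x (g * x * g⁻¹), inv_inv] at h
      have h2 : K (g * x * g⁻¹) (g ^ (j + 1) * x * (g ^ (j + 1))⁻¹) =
          K x (g ^ j * x * (g ^ j)⁻¹) := by
        rw [conj_succ, k5 x hx _ (hgpE j x hx)]
      rw [h2] at h
      exact (inv_mul_eq_one.mp h)
    have pw : ∀ j : ℕ, K x (g ^ j * x * (g ^ j)⁻¹) = (K x (g * x * g⁻¹)) ^ j := by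
      intro j
      induction j with
      | zero => simp [kaa]
      | succ j ih => rw [hrec, ih, pow_succ']
    have h1 : (K x (g * x * g⁻¹)) ^ ϖ = 1 := by
      rw [← pw, hgϖ]; simp [kaa]
    have h2 : (K x (g * x * g⁻¹)) ^ r = 1 := (hK x hx _ hy).2
    have d1 := orderOf_dvd_of_pow_eq_one h1
    have d2 := orderOf_dvd_of_pow_eq_one h2
    exact orderOf_eq_one_iff.mp (Nat.eq_one_of_dvd_coprimes hco d1 d2)
  -- Step 4
  have P : ∀ x ∈ E, ∀ y ∈ E, K x (g * y * g⁻¹) = K (g * x * g⁻¹) y := by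
    intro x hx y hy
    have hx' := hgE x hx
    have hy' := hgE y hy
    have h := N1 (x * y) (E.mul_mem hx hy)
    have e : g * (x * y) * g⁻¹ = (g * x * g⁻¹) * (g * y * g⁻¹) := by group
    rw [e, k1 x hx y hy _ (E.mul_mem hx' hy'), k2 x hx _ hx' _ hy', k2 y hy _ hx' _ hy',
      N1 x hx, N1 y hy, one_mul, mul_one] at h
    rw [k3 y (g * x * g⁻¹)]
    exact eq_inv_of_mul_eq_one_left h
  have Q : ∀ x ∈ E, ∀ y ∈ E, K x (g * (g * y * g⁻¹) * g⁻¹) = K x y := by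
    intro x hx y hy
    rw [P x hx _ (hgE y hy), k5 x hx y hy]
  have Q2 : ∀ j : ℕ, ∀ x ∈ E, ∀ y ∈ E, K x (g ^ (2 * j) * y * (g ^ (2 * j))⁻¹) = K x y := by
    intro j
    induction j with
    | zero => intro x _ y _; simp
    | succ j ih =>
      intro x hx y hy
      have e : 2 * (j + 1) = (2 * j + 1) + 1 := by ring
      rw [e, conj_succ, conj_succ, Q x hx _ (hgpE _ y hy), ih x hx y hy]
  intro x hx y hy
  rw [comm_iff]
  obtain ⟨m, hm⟩ := hodd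
  have h1 := Q2 (m + 1) x hx y hy
  have e : g ^ (2 * (m + 1)) = g := by
    have : 2 * (m + 1) = ϖ + 1 := by omega
    rw [this, pow_succ, hgϖ, one_mul]
  rw [e] at h1
  rw [k2 x hx _ (hgE y hy) _ (E.inv_mem hy), h1, k4' x hx y hy, mul_inv_cancel]

end Cfsg.Agent.Lib.Helper97.Ext
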