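import Mathlib
import Cfsg.Agent.Lib.Helper97.Ext.Basic

set_option autoImplicit false

namespace Cfsg.Agent.Lib.Helper97.Ext

open Matrix Module Cfsg.Agent.Lib.Helper97

variable {F : Type*} [Field F] {n : ℕ}

theorem pow_apply_of_mem_eig {g : GL (Fin n) F} {c : F} {w : Fin n → F}
    (hw : w ∈ eig g c) (j : ℕ) : L (g ^ j) w = c ^ j • w := by
  rw [mem_eig] at hw
  induction j with
  | zero => simp [L_one]
  | succ j ih => rw [pow_succ, L_mul_apply, hw, map_smul, ih, smul_smul, pow_succ, mul_comm]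

theorem conj_pow_fix {g x : GL (Fin n) F} {c : F} (hc : c ≠ 0) {w : Fin n → F}
    (hw : w ∈ eig g c) (hxw : L x w ∈ eig g c) (j : ℕ) :
    L (g ^ j * x * (g ^ j)⁻¹) w = L x w := by
  have h1 : w ∈ eig (g ^ j) (c ^ j) := (mem_eig _ _ _).mpr (pow_apply_of_mem_eig hw j)
  rw [L_mul_apply, L_mul_apply, inv_apply_of_mem_eig (pow_ne_zero j hc) h1, map_smul, map_smul,
    pow_apply_of_mem_eig hxw j, smul_smul, inv_mul_cancel₀ (pow_ne_zero j hc), one_smul]

/-- [D] fixed point argument -/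
theorem exists_commuting_T [Fintype F] {r : ℕ} (hr : r.Prime) (E : Subgroup (GL (Fin n) F))
    (g : GL (Fin n) F) (c : F) (hc : c ≠ 0)
    (hgr : g ^ r = 1) (hgE : ∀ a ∈ E, g * a * g⁻¹ ∈ E)
    (hK : ∀ a ∈ E, ∀ b ∈ E, a * b * a⁻¹ * b⁻¹ ∈ Cfsg.Geo.scalars (Fin n) F)
    (hpow : ∀ a ∈ E, a ^ r ∈ Cfsg.Geo.scalars (Fin n) F)
    (hbig : n < 2 * finrank F (eig g c))
    (x : GL (Fin n) F) (hx : x ∈ E) (hTx : g * x * g⁻¹ * x⁻¹ ∉ Cfsg.Geo.scalars (Fin n) F) :
    ∃ u ∈ E, g * u * g⁻¹ * u⁻¹ ∉ Cfsg.Geo.scalars (Fin n) F ∧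
      Commute g (g * u * g⁻¹ * u⁻¹) := by
  classical
  have : Fact r.Prime := ⟨hr⟩
  obtain ⟨T, Tdef⟩ : ∃ T : GL (Fin n) F → GL (Fin n) F, ∀ u, T u = g * u * g⁻¹ * u⁻¹ :=
    ⟨fun u => g * u * g⁻¹ * u⁻¹, fun _ => rfl⟩
  have hTE : ∀ u ∈ E, T u ∈ E := fun u hu => by
    rw [Tdef]; exact E.mul_mem (hgE u hu) (E.inv_mem hu)
  simp only [← Tdef] at hTx ⊢
  obtain ⟨w₀, hw₀0, hw₀, hxw₀⟩ := exists_common_vec g x hbig
  set w := L x w₀ with hwdef
  have hw0 : w ≠ 0 := by
    intro h0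
    apply hw₀0
    have : L x w₀ = L x 0 := by rw [← hwdef, h0, map_zero]
    exact L_injective x this
  have hTw : L (T x) w = w := by
    have := inter_le_fix g x hc ⟨hxw₀, Submodule.mem_map_of_mem hw₀⟩
    rw [mem_eig, one_smul, ← Tdef] at this
    exact this
  have hgpE : ∀ j : ℕ, ∀ a ∈ E, g ^ j * a * (g ^ j)⁻¹ ∈ E := by
    intro j
    induction j with
    | zero => intro a ha; simpa using ha
    | succ j ih =>
      intro a ha
      have := hgE _ (ih a ha)
      have e : g ^ (j + 1) * a * (g ^ (j + 1))⁻¹ = g * (g ^ j * a * (g ^ j)⁻¹) * g⁻¹ := by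
        rw [pow_succ']; group
      rw [e]; exact this
  let gens : Set (GL (Fin n) F) := {s | ∃ j : ℕ, s = g ^ j * T x * (g ^ j)⁻¹}
  let S : Subgroup (GL (Fin n) F) := Subgroup.closure gens
  -- (i)
  have hSfix : ∀ s ∈ S, L s w = w := by
    intro s hs
    induction hs using Subgroup.closure_induction with
    | mem s hs =>
      obtain ⟨j, rfl⟩ := hs
      rw [conj_pow_fix hc hxw₀ (by rw [hTw]; exact hxw₀) j, hTw]
    | one => rw [L_one]; rfl
    | mul a b _ _ ha hb => rw [L_mul_apply, hb, ha]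
    | inv a _ ha =>
      conv_lhs => rw [← ha]
      exact L_inv_apply a w
  -- multiplicativity of `T` modulo scalars
  have Tmul : ∀ u ∈ E, ∀ v ∈ E, T (u * v) = (u * T v * u⁻¹ * (T v)⁻¹) * (T u * T v) := by
    intro u hu v hv
    have hk := hK u hu (T v) (hTE v hv)
    calc T (u * v) = T u * ((u * T v * u⁻¹ * (T v)⁻¹) * T v) := by simp only [Tdef]; group
      _ = T u * (u * T v * u⁻¹ * (T v)⁻¹) * T v := (mul_assoc _ _ _).symm
      _ = (u * T v * u⁻¹ * (T v)⁻¹) * T u * T v := by rw [scalar_comm hk (T u)]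
      _ = _ := mul_assoc _ _ _
  -- (ii)
  have hSE : ∀ s ∈ S, ∃ u ∈ E, s * (T u)⁻¹ ∈ Cfsg.Geo.scalars (Fin n) F := by
    intro s hs
    induction hs using Subgroup.closure_induction with
    | mem s hs =>
      obtain ⟨j, rfl⟩ := hs
      refine ⟨g ^ j * x * (g ^ j)⁻¹, hgpE j x hx, ?_⟩
      have : g ^ j * T x * (g ^ j)⁻¹ * (T (g ^ j * x * (g ^ j)⁻¹))⁻¹ = 1 := by
        simp only [Tdef]; group
      rw [this]; exact Subgroup.one_mem _
    | one =>
      refine ⟨1, E.one_mem, ?_⟩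
      have : (1 : GL (Fin n) F) * (T 1)⁻¹ = 1 := by simp only [Tdef]; group
      rw [this]; exact Subgroup.one_mem _
    | mul a b _ _ ha hb =>
      obtain ⟨u, hu, hz⟩ := ha
      obtain ⟨v, hv, hz'⟩ := hb
      refine ⟨u * v, E.mul_mem hu hv, ?_⟩
      have hk := hK u hu (T v) (hTE v hv)
      have e : a * b * (T (u * v))⁻¹ =
          (a * (T u)⁻¹) * (b * (T v)⁻¹) * (u * T v * u⁻¹ * (T v)⁻¹)⁻¹ := by
        rw [Tmul u hu v hv]
        have e1 : a * b = (a * (T u)⁻¹) * (T u * (b * (T v)⁻¹)) * T v := by group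
        rw [e1, ← scalar_comm hz' (T u)]
        group
      rw [e]
      exact Subgroup.mul_mem _ (Subgroup.mul_mem _ hz hz') (Subgroup.inv_mem _ hk)
    | inv a _ ha =>
      obtain ⟨u, hu, hz⟩ := ha
      refine ⟨u⁻¹, E.inv_mem hu, ?_⟩
      have hk := hK u hu (T u⁻¹) (hTE _ (E.inv_mem hu))
      have h1 := Tmul u hu u⁻¹ (E.inv_mem hu)
      have h2 : T (u * u⁻¹) = 1 := by simp only [Tdef]; group
      rw [h2] at h1
      obtain ⟨k, hkdef⟩ : ∃ k, k = u * T u⁻¹ * u⁻¹ * (T u⁻¹)⁻¹ := ⟨_, rfl⟩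
      rw [← hkdef] at hk h1
      have e3 : (T u⁻¹)⁻¹ = k * T u := by
        have : k * T u * T u⁻¹ = 1 := by rw [mul_assoc]; exact h1.symm
        exact (eq_inv_of_mul_eq_one_left this).symm
      have hzk : (a * (T u)⁻¹)⁻¹ * k ∈ Cfsg.Geo.scalars (Fin n) F :=
        Subgroup.mul_mem _ (Subgroup.inv_mem _ hz) hk
      have e : a⁻¹ * (T u⁻¹)⁻¹ = (a * (T u)⁻¹)⁻¹ * k := by
        rw [e3]
        have e4 : a⁻¹ * (k * T u) = (T u)⁻¹ * (((a * (T u)⁻¹)⁻¹ * k) * T u) := by group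
        rw [e4, scalar_comm hzk (T u)]
        group
      rw [e]; exact hzk
  have hSsubE : ∀ s ∈ S, s ∈ E := by
    have : S ≤ E := by
      apply (Subgroup.closure_le E).mpr
      rintro s ⟨j, rfl⟩
      exact hgpE j _ (hTE x hx)
    exact fun s hs => this hs
  -- scalars in `S` are trivial
  have hSsc : ∀ s ∈ S, s ∈ Cfsg.Geo.scalars (Fin n) F → s = 1 := fun s hs hsc =>
    scalar_eq_one_of_fix hsc hw0 (hSfix s hs)
  have hSr : ∀ s ∈ S, s ^ r = 1 := by
    intro s hs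
    exact hSsc _ (S.pow_mem hs r) (hpow s (hSsubE s hs))
  have hSp : IsPGroup r S := by
    intro s
    refine ⟨1, ?_⟩
    apply Subtype.ext
    rw [pow_one]
    exact hSr s.1 s.2
  -- `g` normalizes `S`
  have hconj : ∀ s ∈ S, g * s * g⁻¹ ∈ S := by
    intro s hs
    induction hs using Subgroup.closure_induction with
    | mem s hs =>
      obtain ⟨j, rfl⟩ := hs
      apply Subgroup.subset_closure
      refine ⟨j + 1, ?_⟩
      rw [pow_succ']; group
    | one => simp [S.one_mem]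
    | mul a b _ _ ha hb =>
      have : g * (a * b) * g⁻¹ = (g * a * g⁻¹) * (g * b * g⁻¹) := by group
      rw [this]; exact S.mul_mem ha hb
    | inv a _ ha =>
      have : g * a⁻¹ * g⁻¹ = (g * a * g⁻¹)⁻¹ := by group
      rw [this]; exact S.inv_mem ha
  have hconjp : ∀ j : ℕ, ∀ s ∈ S, g ^ j * s * (g ^ j)⁻¹ ∈ S := by
    intro j
    induction j with
    | zero => intro a ha; simpa using ha
    | succ j ih =>
      intro a ha
      have := hconj _ (ih a ha)
      have e : g ^ (j + 1) * a * (g ^ (j + 1))⁻¹ = g * (g ^ j * a * (g ^ j)⁻¹) * g⁻¹ := by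
        rw [pow_succ']; group
      rw [e]; exact this
  have hgN : g ∈ Subgroup.normalizer (S : Set (GL (Fin n) F)) := by
    rw [Subgroup.mem_normalizer_iff]
    intro s
    refine ⟨hconj s, fun h => ?_⟩
    have h1 := hconjp (r - 1) _ h
    have hr1 : r - 1 + 1 = r := Nat.sub_add_cancel hr.one_lt.le
    have e : g ^ (r - 1) * (g * s * g⁻¹) * (g ^ (r - 1))⁻¹ = s := by
      have e1 : g ^ (r - 1) * g = 1 := by rw [← pow_succ, hr1, hgr]
      calc g ^ (r - 1) * (g * s * g⁻¹) * (g ^ (r - 1))⁻¹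
          = (g ^ (r - 1) * g) * s * (g ^ (r - 1) * g)⁻¹ := by group
        _ = s := by rw [e1]; group
    rwa [e] at h1
  have hHN : Subgroup.zpowers g ≤ Subgroup.normalizer (S : Set (GL (Fin n) F)) := (Subgroup.zpowers_le).mpr hgN
  let act : MulAction (Subgroup.zpowers g) S :=
    { smul := fun h s => ⟨h.1 * s.1 * h.1⁻¹, (Subgroup.mem_normalizer_iff.mp (hHN h.2) s.1).mp s.2⟩
      one_smul := by
        intro s
        apply Subtype.ext
        show (1 : GL (Fin n) F) * s.1 * (1 : GL (Fin n) F)⁻¹ = s.1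
        group
      mul_smul := by
        intro a b s
        apply Subtype.ext
        show (a.1 * b.1) * s.1 * (a.1 * b.1)⁻¹ = a.1 * (b.1 * s.1 * b.1⁻¹) * a.1⁻¹
        group }
  have hHp : IsPGroup r (Subgroup.zpowers g) := by
    rintro ⟨h, hh⟩
    obtain ⟨k, rfl⟩ := Subgroup.mem_zpowers_iff.mp hh
    refine ⟨1, ?_⟩
    apply Subtype.ext
    show (g ^ k) ^ (r ^ 1) = 1
    rw [pow_one, ← zpow_natCast, ← _root_.zpow_mul, mul_comm, _root_.zpow_mul, zpow_natCast, hgr, _root_.one_zpow]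
  have hTxS : T x ∈ S := by
    apply Subgroup.subset_closure
    exact ⟨0, by simp⟩
  have hdvd : r ∣ Nat.card S := by
    rcases hSp.card_eq_or_dvd with h | h
    · exfalso
      have hsub : Subsingleton S := (Nat.card_eq_one_iff_unique.mp h).1
      have h1 : (⟨T x, hTxS⟩ : S) = 1 := Subsingleton.elim _ _
      have h2 : T x = 1 := congrArg Subtype.val h1
      apply hTx
      rw [h2]; exact Subgroup.one_mem _
    · exact h
  have hone : (1 : S) ∈ MulAction.fixedPoints (Subgroup.zpowers g) S := by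
    intro h
    apply Subtype.ext
    show h.1 * (1 : GL (Fin n) F) * h.1⁻¹ = 1
    group
  obtain ⟨s, hsfix, hs1⟩ := hHp.exists_fixed_point_of_prime_dvd_card_of_fixed_point S hdvd hone
  have hsg : g * s.1 * g⁻¹ = s.1 := by
    have := hsfix ⟨g, Subgroup.mem_zpowers g⟩
    exact congrArg Subtype.val this
  have hsne : s.1 ≠ 1 := by
    intro h
    apply hs1
    apply Subtype.ext
    exact h.symm
  obtain ⟨u, hu, hz⟩ := hSE s.1 s.2
  refine ⟨u, hu, ?_, ?_⟩
  · intro hsc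
    apply hsne
    apply hSsc s.1 s.2
    have : s.1 = (s.1 * (T u)⁻¹) * T u := by group
    rw [this]
    exact Subgroup.mul_mem _ hz hsc
  · show g * T u = T u * g
    have e : T u = (s.1 * (T u)⁻¹)⁻¹ * s.1 := by group
    have hzi := Subgroup.inv_mem _ hz
    have hgs : g * s.1 = s.1 * g := by
      calc g * s.1 = (g * s.1 * g⁻¹) * g := by group
        _ = s.1 * g := by rw [hsg]
    rw [e, ← mul_assoc, ← scalar_comm hzi g, mul_assoc, hgs, mul_assoc]

end Cfsg.Agent.Lib.Helper97.Ext
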