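import Mathlib
import Cfsg.Agent.Lib.Helper97.Ext.Basic
import Cfsg.Agent.Lib.Helper97.Ext.PB
import Cfsg.Agent.Lib.Helper97.Ext.PD
import Cfsg.Agent.Lib.Helper97.Ext.Concrete
import Cfsg.Agent.Lib.Helper63.Ext.C

/-!
# Eigenspace bounds for elements normalising an extraspecial group (S5877): assembly
-/

set_option autoImplicit false

namespace Cfsg.Agent.Lib.Helper97.Ext

open Matrix Module Cfsg.Agent.Lib.Helper97

variable {F : Type*} [Field F] [Fintype F] {n : ℕ}

theorem K_data {r : ℕ} (hn : 0 < n) {a b : GL (Fin n) F}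
    (h : a * b * a⁻¹ * b⁻¹ ∈ Cfsg.Geo.scalars (Fin n) F) (hr : (a * b * a⁻¹ * b⁻¹) ^ r = 1) :
    ∃ l : F, l ^ r = 1 ∧ (∀ w, L a (L b w) = l • L b (L a w)) ∧ (l = 1 → a * b = b * a) := by
  obtain ⟨l, hl0, hl⟩ := scalar_apply h
  have hab : a * b = (a * b * a⁻¹ * b⁻¹) * (b * a) := by group
  have hsh : ∀ w, L a (L b w) = l • L b (L a w) := by
    intro w
    rw [← L_mul_apply, hab, L_mul_apply, hl, L_mul_apply]
  refine ⟨l, ?_, hsh, ?_⟩
  · let e : Fin n → F := Pi.single ⟨0, hn⟩ 1
    have he : e ≠ 0 := by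
      intro h0
      have := congrFun h0 ⟨0, hn⟩
      simp [e] at this
    have h1 : e ∈ eig (a * b * a⁻¹ * b⁻¹) l := (mem_eig _ _ _).mpr (hl e)
    have h2 := pow_apply_of_mem_eig h1 r
    rw [hr, L_one] at h2
    have h3 : (1 : F) • e = l ^ r • e := by rw [one_smul]; exact h2
    exact (smul_left_injective F he h3).symm
  · intro h1
    apply L_inj
    ext1 v
    ext1
    simp only [LinearMap.comp_apply]
    rw [L_mul_apply, L_mul_apply, hsh, h1, one_smul]

theorem main_abstract {r ϖ : ℕ} (hr : r.Prime) (hϖ : ϖ.Prime) (E : Subgroup (GL (Fin n) F))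
    (g : GL (Fin n) F) (hord : orderOf g = ϖ) (hns : g ∉ Cfsg.Geo.scalars (Fin n) F)
    (hgE : ∀ a ∈ E, g * a * g⁻¹ ∈ E)
    (hK : ∀ a ∈ E, ∀ b ∈ E, a * b * a⁻¹ * b⁻¹ ∈ Cfsg.Geo.scalars (Fin n) F ∧
      (a * b * a⁻¹ * b⁻¹) ^ r = 1)
    (hcent : ∀ a : GL (Fin n) F, (∀ b ∈ E, a * b = b * a) → a ∈ Cfsg.Geo.scalars (Fin n) F)
    (hpow : r ≠ 2 → ∀ a ∈ E, a ^ r ∈ Cfsg.Geo.scalars (Fin n) F)
    (hirr : ∀ U : Submodule F (Fin n → F), (∀ a ∈ E, U.map (L a) ≤ U) → U = ⊥ ∨ U = ⊤)
    (c : F) :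
    (2 * r * finrank F (eig g c) ≤ (r + 1) * n) ∧
      (((ϖ ≠ 2 ∧ ϖ ≠ r) ∨ (ϖ = r ∧ 5 ≤ r)) → 2 * finrank F (eig g c) ≤ n) := by
  classical
  by_cases hc : c = 0
  · rw [hc, eig_zero]; simp
  have hn : 0 < n := by
    rcases Nat.eq_zero_or_pos n with h0 | h0
    · subst h0
      exfalso
      apply hns
      have : g = 1 := Subsingleton.elim _ _
      rw [this]; exact Subgroup.one_mem _
    · exact h0
  have hTE : ∀ x ∈ E, g * x * g⁻¹ * x⁻¹ ∈ E := fun x hx => E.mul_mem (hgE x hx) (E.inv_mem hx)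
  have hgϖ : g ^ ϖ = 1 := by rw [← hord]; exact pow_orderOf_eq_one g
  -- a non-scalar element of `E` has small eigenspaces
  have hsmall : ∀ Y ∈ E, Y ∉ Cfsg.Geo.scalars (Fin n) F → ∀ μ, r * finrank F (eig Y μ) ≤ n := by
    intro Y hY hYs μ
    have : ∃ b ∈ E, Y * b ≠ b * Y := by
      by_contra hcon
      push Not at hcon
      exact hYs (hcent Y hcon)
    obtain ⟨b, hb, hYb⟩ := this
    obtain ⟨l, hlr, hsh, hl1⟩ := K_data hn (hK Y hY b hb).1 (hK Y hY b hb).2
    exact r_mul_eig_le hr hsh (fun h => hYb (hl1 h)) hlr μ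
  by_cases hA : ∀ x ∈ E, g * x * g⁻¹ * x⁻¹ ∈ Cfsg.Geo.scalars (Fin n) F
  · -- Case A
    have : ∃ x ∈ E, g * x ≠ x * g := by
      by_contra hcon
      push Not at hcon
      exact hns (hcent g hcon)
    obtain ⟨x, hx, hgx⟩ := this
    obtain ⟨l, hl0, hl⟩ := scalar_apply (hA x hx)
    have hab : g * x = (g * x * g⁻¹ * x⁻¹) * (x * g) := by group
    have hsh : ∀ w, L g (L x w) = l • L x (L g w) := by
      intro w
      rw [← L_mul_apply, hab, L_mul_apply, hl, L_mul_apply]
    have hl1 : l ≠ 1 := by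
      intro h1
      apply hgx
      apply L_inj
      ext1 v
      ext1
      simp only [LinearMap.comp_apply]
      rw [L_mul_apply, L_mul_apply, hsh, h1, one_smul]
    have h2 := two_mul_eig_le hsh hl1 c
    refine ⟨?_, fun _ => h2⟩
    calc 2 * r * finrank F (eig g c) = r * (2 * finrank F (eig g c)) := by ring
      _ ≤ r * n := Nat.mul_le_mul_left _ h2
      _ ≤ (r + 1) * n := Nat.mul_le_mul_right _ (Nat.le_succ r)
  · -- Case B
    push Not at hA
    obtain ⟨x, hx, hTx⟩ := hA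
    refine ⟨?_, ?_⟩
    · have h1 := two_mul_le_add_fix g x hc
      have h2 := hsmall _ (hTE x hx) hTx 1
      calc 2 * r * finrank F (eig g c) = r * (2 * finrank F (eig g c)) := by ring
        _ ≤ r * (n + finrank F (eig (g * x * g⁻¹ * x⁻¹) 1)) := Nat.mul_le_mul_left _ h1
        _ = r * n + r * finrank F (eig (g * x * g⁻¹ * x⁻¹) 1) := by ring
        _ ≤ r * n + n := Nat.add_le_add_left h2 _
        _ = (r + 1) * n := by ring
    · intro hcase
      by_contra hbig
      push Not at hbig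
      rcases hcase with ⟨h2, hne⟩ | ⟨heq, hfive⟩
      · -- coprime odd case
        have hodd : Odd ϖ := hϖ.odd_of_ne_two h2
        have hco : Nat.Coprime ϖ r := (Nat.coprime_primes hϖ hr).mpr hne
        have hgpE : ∀ j : ℕ, ∀ a ∈ E, g ^ j * a * (g ^ j)⁻¹ ∈ E := by
          intro j
          induction j with
          | zero => intro a ha; simpa using ha
          | succ j ih =>
            intro a ha
            have := hgE _ (ih a ha)
            have e : g ^ (j + 1) * a * (g ^ (j + 1))⁻¹ = g * (g ^ j * a * (g ^ j)⁻¹) * g⁻¹ := by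
              rw [pow_succ']; group
            rw [e]; exact this
        have hfix : ∀ x ∈ E, ∀ j : ℕ,
            Commute (x⁻¹ * (g * x * g⁻¹)) (x⁻¹ * (g ^ j * x * (g ^ j)⁻¹)) := by
          intro y hy j
          obtain ⟨w, hw0, hw, hyw⟩ := exists_common_vec g y hbig
          have f1 : ∀ i : ℕ, L (y⁻¹ * (g ^ i * y * (g ^ i)⁻¹)) w = w := by
            intro i
            rw [L_mul_apply, conj_pow_fix hc hw hyw i, L_inv_apply]
          have f1' : ∀ i : ℕ, L (y⁻¹ * (g ^ i * y * (g ^ i)⁻¹))⁻¹ w = w := by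
            intro i
            conv_lhs => rw [← f1 i]
            exact L_inv_apply _ _
          have m1 : ∀ i : ℕ, y⁻¹ * (g ^ i * y * (g ^ i)⁻¹) ∈ E :=
            fun i => E.mul_mem (E.inv_mem hy) (hgpE i y hy)
          have hKK := (hK _ (m1 1) _ (m1 j)).1
          have hfixK : L ((y⁻¹ * (g ^ 1 * y * (g ^ 1)⁻¹)) * (y⁻¹ * (g ^ j * y * (g ^ j)⁻¹)) *
              (y⁻¹ * (g ^ 1 * y * (g ^ 1)⁻¹))⁻¹ * (y⁻¹ * (g ^ j * y * (g ^ j)⁻¹))⁻¹) w = w := by
            rw [L_mul_apply, L_mul_apply, L_mul_apply, f1', f1', f1, f1]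
          have h1 := scalar_eq_one_of_fix hKK hw0 hfixK
          rw [pow_one] at h1
          show _ * _ = _ * _
          have := h1
          rw [mul_inv_eq_one, mul_inv_eq_iff_eq_mul] at this
          exact this
        have hcomm := pair_lemma E g r ϖ hco hodd hgϖ hgE
          (fun a ha b hb => ⟨scalar_mem_center (hK a ha b hb).1, (hK a ha b hb).2⟩) hfix
        apply hTx
        apply hcent
        intro b hb
        exact (hcomm b hb x hx).eq.symm
      · -- ϖ = r ≥ 5
        subst heq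
        have hr2 : ϖ ≠ 2 := by omega
        obtain ⟨u, hu, hTu, hcommu⟩ := exists_commuting_T hr E g c hc hgϖ hgE
          (fun a ha b hb => (hK a ha b hb).1) (hpow hr2) hbig x hx hTx
        set Y := g * u * g⁻¹ * u⁻¹ with hY
        have hYE : Y ∈ E := hTE u hu
        obtain ⟨κ, hκr, hκsh, _⟩ := K_data hn (hK u hu Y hYE).1 (hK u hu Y hYE).2
        -- a nonzero vector fixed by `Y`
        obtain ⟨w, hw0, hw, huw⟩ := exists_common_vec g u hbig
        have hv0 : L u w ≠ 0 := by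
          intro h0
          apply hw0
          have : L u w = L u 0 := by rw [h0, map_zero]
          exact L_injective u this
        have hvfix : L u w ∈ eig Y 1 :=
          inter_le_fix g u hc ⟨huw, Submodule.mem_map_of_mem hw⟩
        have hYr : Y ^ ϖ = 1 := by
          apply scalar_eq_one_of_fix (hpow hr2 Y hYE) hv0
          rw [pow_apply_of_mem_eig hvfix, one_pow, one_smul]
        have h4 : ⨆ μ, eig Y μ = ⊤ := by
          have := hirr (⨆ μ, eig Y μ) ?_
          · rcases this with h | h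
            · exfalso
              apply hv0
              have : L u w ∈ (⨆ μ, eig Y μ : Submodule F (Fin n → F)) :=
                (le_iSup (fun μ => eig Y μ) 1) hvfix
              rw [h] at this
              exact this
            · exact h
          · intro a ha
            rw [Submodule.map_iSup]
            apply iSup_le
            intro μ
            obtain ⟨l, _, hsh, _⟩ := K_data hn (hK Y hYE a ha).1 (hK Y hYE a ha).2
            refine le_trans ?_ (le_iSup (fun μ => eig Y μ) (l * μ))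
            rintro _ ⟨v, hv, rfl⟩
            have hv' : L Y v = μ • v := (mem_eig _ _ _).mp hv
            rw [mem_eig, hsh, hv', map_smul, smul_smul]
        have h5 : ∀ β, eig Y β ≠ ⊥ → β ^ ϖ = 1 := by
          intro β hβ
          obtain ⟨v, hv, hv0'⟩ := Submodule.exists_mem_ne_zero_of_ne_bot hβ
          have h2 := pow_apply_of_mem_eig hv ϖ
          rw [hYr, L_one] at h2
          have h3 : (1 : F) • v = β ^ ϖ • v := by rw [one_smul]; exact h2
          exact (smul_left_injective F hv0' h3).symm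
        have h1 : g * u = Y * u * g := by rw [hY]; group
        have := Cfsg.Agent.Lib.Helper63.Ext.heis_bound hr hfive g u Y c κ hc h1 hcommu.eq hκsh hκr h4 h5 (hsmall Y hYE hTu)
        omega

theorem final_bounds {r ϖ : ℕ} (R : Subgroup (GL (Fin n) F)) (hr : r.Prime) (hR : IsPGroup r R)
    (hZ : Nat.card (Subgroup.center R) = r) (hext : commutator R = Subgroup.center R)
    (hexp : Monoid.exponent R = r ∨ Monoid.exponent R = 4)
    (hirr : Cfsg.Geo.ActsAbsolutelyIrreducibly (Cfsg.Geo.matrixSet R)) (g : GL (Fin n) F)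
    (hg : g ∈ Cfsg.Geo.subgroupNormalizer (R ⊔ Cfsg.Geo.scalars (Fin n) F)) (hϖ : ϖ.Prime)
    (hord : orderOf g = ϖ) (hns : g ∉ Cfsg.Geo.scalars (Fin n) F) (c : F) :
    (ϖ = 2 → 4 * finrank F (eig g c) ≤ 3 * n) ∧
    (ϖ = 3 → 3 * finrank F (eig g c) ≤ 2 * n) ∧
    (3 < ϖ → 2 * finrank F (eig g c) ≤ n) ∧
    (ϖ = 3 → ¬ 3 ∣ n → 2 * finrank F (eig g c) ≤ n) := by
  have hgE : ∀ a ∈ R ⊔ Cfsg.Geo.scalars (Fin n) F, g * a * g⁻¹ ∈ R ⊔ Cfsg.Geo.scalars (Fin n) F :=
    fun a ha => (Subgroup.mem_normalizer_iff.mp hg a).mp ha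
  obtain ⟨h1, h2⟩ := main_abstract hr hϖ (R ⊔ Cfsg.Geo.scalars (Fin n) F) g hord hns hgE
    (fun a ha b hb => K_E hZ hext hirr ha hb)
    (fun a ha => mem_scalars_of_centralizes hirr (fun b hb => ha b (Subgroup.mem_sup_left hb)))
    (fun hr2 a ha => pow_E hr hr2 hR hexp ha)
    (fun U hU => hirr.1 U (by
      rintro _ ⟨b, hb, rfl⟩
      exact hU b (Subgroup.mem_sup_left hb))) c
  have hrn : r ∣ n := r_dvd_n hr hZ hext hirr
  have hr2 : 2 ≤ r := hr.two_le
  set d := finrank F (eig g c) with hd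
  refine ⟨?_, ?_, ?_, ?_⟩
  · intro _
    have h3 : r * (4 * d) ≤ r * (3 * n) := by
      calc r * (4 * d) = 2 * (2 * r * d) := by ring
        _ ≤ 2 * ((r + 1) * n) := Nat.mul_le_mul_left _ h1
        _ = (2 * r + 2) * n := by ring
        _ ≤ (3 * r) * n := Nat.mul_le_mul_right _ (by omega)
        _ = r * (3 * n) := by ring
    exact Nat.le_of_mul_le_mul_left h3 (by omega)
  · intro h3
    by_cases hr3 : r = 3
    · subst hr3
      omega
    · have := h2 (Or.inl ⟨by omega, by omega⟩)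
      omega
  · intro h3
    by_cases hre : ϖ = r
    · apply h2
      right
      refine ⟨hre, ?_⟩
      subst hre
      by_contra hlt
      have h4 : ϖ = 4 := by omega
      rw [h4] at hϖ
      exact absurd hϖ (by norm_num)
    · exact h2 (Or.inl ⟨by omega, hre⟩)
  · intro h3 hn3
    apply h2
    left
    refine ⟨by omega, ?_⟩
    intro hre
    apply hn3
    rw [← h3, hre]
    exact hrn

end Cfsg.Agent.Lib.Helper97.Ext
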